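import Mathlib
import Cfsg.Agent.H421.KS.Eb
import Cfsg.Agent.H646.ProjLat
import Cfsg.Agent.H703.PR.Orb
import Cfsg.Agent.Blocks.CyclicUpper
import Cfsg.Agent.Characters.Linear
import Cfsg.Agent.S0150
import Cfsg.Agent.S4664

/-!
# The parity law for the generalized characters vanishing on the `p`-singular elements (helper703)

`Core p M K G σ` : the parity law for one idempotent of `K[G]` with local coefficients;
`lform` : for all `x : IrrCharacter G → ℤ` such that `∑ x χ χ` vanishes on the `p`-singular elements and all `p`-blocks `B`: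
`∑_{χ ∈ B} x χ (ν|G| - ν χ(1) + 1) + ∑_{σ-orbits o ⊆ B} x o` is even.
-/

set_option autoImplicit false

open Cfsg Equiv Equiv.Perm
open scoped ComplexConjugate
open Cfsg.Agent.Characters.Core Cfsg.Agent.Characters.Brauer Cfsg.Agent.H646.ProjLat

namespace Cfsg.Agent.H703.PR

universe u

/-- the exponent of `p` in `|G| / χ(1)` -/
noncomputable def dh (p : ℕ) {G : Type u} [Group G] (χ : IrrCharacter G) : ℕ :=
  (Nat.card G).factorization p - (charDegree (χ : G → ℂ)).factorization p

/-- **the parity law for one idempotent** (`σ` : the action of a field automorphism on the irreducible characters) -/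
def Core (p : ℕ) (M : Ideal AlgInt) (K : Type*) [Field K] [Algebra K ℂ] (G : Type u) [Group G] [Fintype G]
    (σ : Perm (IrrCharacter G)) : Prop :=
  ∀ e : MonoidAlgebra K G, e * e = e → (∀ g, MemLocalRing M (algebraMap K ℂ (e.coeff g))) →
    ∀ m : IrrCharacter G → ℕ, (∀ χ : IrrCharacter G, H162.KS.ev (χ : G → ℂ) e = m χ) →
      Even (∑ᶠ χ : IrrCharacter G, m χ ^ 2 * dh p χ + Nat.card {χ : IrrCharacter G // Odd (m χ)} +
        Nat.card {o : Orbits σ // Odd (m o.out)})

/-- the sign form gives `Core` -/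
theorem core_of_sign {p : ℕ} {M : Ideal AlgInt} {K : Type*} [Field K] [Algebra K ℂ] {G : Type u} [Group G] [Fintype G]
    {σ : Perm (IrrCharacter G)} [Fintype (IrrCharacter G)] [DecidableEq (IrrCharacter G)]
    (H : ∀ e : MonoidAlgebra K G, e * e = e → (∀ g, MemLocalRing M (algebraMap K ℂ (e.coeff g))) →
      ∀ m : IrrCharacter G → ℕ, (∀ χ : IrrCharacter G, H162.KS.ev (χ : G → ℂ) e = m χ) →
        ∃ h : ∀ χ, Odd (m (σ χ)) ↔ Odd (m χ),
          sign (σ.subtypePerm (p := fun χ => Odd (m χ)) h) = (-1) ^ (∑ χ : IrrCharacter G, m χ ^ 2 * dh p χ)) : Core p M K G σ := by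
  intro e he heO m hm
  obtain ⟨h, h1⟩ := H e he heO m hm
  rw [sign_subtype h] at h1
  have h2 : ((-1 : ℤˣ)) ^ (∑ᶠ χ : IrrCharacter G, m χ ^ 2 * dh p χ + Nat.card {χ : IrrCharacter G // Odd (m χ)} +
        Nat.card {o : Orbits σ // Odd (m o.out)}) = 1 := by
    rw [finsum_eq_sum_of_fintype, Nat.card_eq_fintype_card (α := {χ : IrrCharacter G // Odd (m χ)}), add_assoc, pow_add,
      h1, ← pow_add, ← two_mul, pow_mul]
    simp
  rcases Nat.even_or_odd (∑ᶠ χ : IrrCharacter G, m χ ^ 2 * dh p χ + Nat.card {χ : IrrCharacter G // Odd (m χ)} +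
        Nat.card {o : Orbits σ // Odd (m o.out)}) with h3 | h3
  · exact h3
  · rw [h3.neg_one_pow] at h2
    exact absurd h2 (by decide)

/-- the block idempotent over a field containing its coefficients -/
theorem exists_eB' {K : Type*} [Field K] [Algebra K ℂ] {G : Type*} [Group G] [Fintype G] (B : Set (IrrCharacter G))
    (hK : ∀ g, ∃ k : K, algebraMap K ℂ k = blockCoeff B g) :
    ∃ e : MonoidAlgebra K G, e * e = e ∧ (∀ x, e * x = x * e) ∧
      (∀ g, algebraMap K ℂ (e.coeff g) = blockCoeff B g) ∧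
      (∀ χ : IrrCharacter G, ∀ x, χ ∈ B → H162.KS.ev (χ : G → ℂ) (e * x) = H162.KS.ev (χ : G → ℂ) x) ∧
      ∀ χ : IrrCharacter G, ∀ x, χ ∉ B → H162.KS.ev (χ : G → ℂ) (e * x) = 0 := by
  classical
  choose f hf using hK
  let e : MonoidAlgebra K G := .ofCoeff (Finsupp.equivFunOnFinite.symm f)
  have he : H421.KS.toC K G e = Blocks.GroupAlg.idem B := by
    ext g
    exact hf g
  refine ⟨e, H421.KS.toC_injective ?_, fun x => H421.KS.toC_injective ?_, hf, fun χ x hχ => ?_, fun χ x hχ => ?_⟩
  · rw [map_mul, he, Blocks.GroupAlg.idem_mul_idem]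
  · rw [map_mul, map_mul, he]
    exact ((Subalgebra.mem_center_iff.1 (Blocks.GroupAlg.idem_mem_center B)) _).symm
  · rw [← H421.KS.lin_toC, map_mul, he, Blocks.GroupAlg.lin_mul_of_mem_center χ.2 (Blocks.GroupAlg.idem_mem_center B),
      Blocks.GroupAlg.omega_idem, if_pos hχ, one_mul, H421.KS.lin_toC]
  · rw [← H421.KS.lin_toC, map_mul, he, Blocks.GroupAlg.lin_mul_of_mem_center χ.2 (Blocks.GroupAlg.idem_mem_center B),
      Blocks.GroupAlg.omega_idem, if_neg hχ, zero_mul]

/-- the idempotent of a block and a linear character of a `p'`-subgroup -/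
theorem exists_e' {K : Type*} [Field K] [Algebra K ℂ] {G : Type*} [Group G] [Fintype G]
    {p : ℕ} [Fact p.Prime] {M : Ideal AlgInt} (hM : IsPModular p M) {B : Set (IrrCharacter G)}
    (hB : IsPBlock M B) (hK : ∀ g, ∃ k : K, algebraMap K ℂ k = blockCoeff B g)
    (H : Subgroup G) (hH : ¬ p ∣ Nat.card H) (lam : H →* ℂˣ)
    (hroot : ∀ z : ℂ, z ^ Nat.card H = 1 → ∃ k : K, algebraMap K ℂ k = z) (m : IrrCharacter G → ℕ)
    (hm : ∀ χ : IrrCharacter G, (m χ : ℂ) * (Nat.card H : ℂ) = ∑ᶠ h : H, (χ : G → ℂ) (h : G) * ((lam h)⁻¹ : ℂˣ)) :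
    ∃ e : MonoidAlgebra K G, e * e = e ∧ (∀ g, MemLocalRing M (algebraMap K ℂ (e.coeff g))) ∧
      (∀ χ ∈ B, H162.KS.ev (χ : G → ℂ) e = m χ) ∧
      ∀ χ : IrrCharacter G, χ ∉ B → H162.KS.ev (χ : G → ℂ) e = 0 := by
  have := Blocks.Local.isPrime_of_isPModular hM
  obtain ⟨e₁, h1, h2, h3, h4, h5⟩ := exists_eB' B hK
  obtain ⟨e₂, k1, k2, k3⟩ := H421.KS.exists_eH hM H hH lam hroot
  have hn : (Nat.card H : ℂ) ≠ 0 := Nat.cast_ne_zero.2 Nat.card_pos.ne'
  refine ⟨e₁ * e₂, ?_, fun g => H421.KS.local_mul (fun g => ?_) k2 g, fun χ hχ => ?_, fun χ hχ => h5 χ e₂ hχ⟩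
  · rw [mul_assoc, ← mul_assoc e₂, ← h2 e₂, mul_assoc, k1, ← mul_assoc, h1]
  · rw [h3]
    exact S0913.result p M hM B hB g
  · rw [h4 χ e₂ hχ]
    apply mul_right_cancel₀ hn
    rw [k3, hm]

/-- a field with the roots of unity of order `|G|_{p'}` contains the coefficients of the block idempotents -/
theorem blockCoeff_mem {K : Type*} [Field K] [Algebra K ℂ] {G : Type*} [Group G] [Fintype G]
    {p : ℕ} [Fact p.Prime] {M : Ideal AlgInt} (hM : IsPModular p M)
    (hK : ∀ z : ℂ, z ^ (Nat.card G / p ^ (Nat.card G).factorization p) = 1 → ∃ k : K, algebraMap K ℂ k = z)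
    {B : Set (IrrCharacter G)} (hB : IsPBlock M B) (g : G) : ∃ k : K, algebraMap K ℂ k = blockCoeff B g := by
  have h1 := S4664.result p M hM B hB g
  set N := Nat.card G / p ^ (Nat.card G).factorization p with hN
  have hN0 : N ≠ 0 := (Nat.ordCompl_pos p Nat.card_pos.ne').ne'
  have h2 : Complex.exp (2 * Real.pi * Complex.I / (N : ℂ)) ∈ (algebraMap K ℂ).fieldRange :=
    hK _ (Complex.isPrimitiveRoot_exp N hN0).pow_eq_one
  have h3 : ∀ z ∈ IntermediateField.adjoin ℚ ({Complex.exp (2 * Real.pi * Complex.I / (N : ℂ))} : Set ℂ),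
      z ∈ (algebraMap K ℂ).fieldRange := by
    intro z hz
    induction hz using IntermediateField.adjoin_induction with
    | mem x hx =>
      rw [Set.mem_singleton_iff] at hx
      rw [hx]
      exact h2
    | algebraMap x =>
      rw [eq_ratCast]
      exact SubfieldClass.ratCast_mem _ x
    | add x y _ _ hx hy => exact add_mem hx hy
    | inv x _ hx => exact inv_mem hx
    | mul x y _ _ hx hy => exact mul_mem hx hy
  exact h3 _ h1

theorem mult_eq {G : Type u} [Group G] [Fintype G] (H : Subgroup G) (lam : H →* ℂˣ) (χ : IrrCharacter G) {n : ℕ}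
    (h2 : (n : ℂ) = classInner (indFun H (fun h => (lam h : ℂ))) (χ : G → ℂ)) :
    (n : ℂ) * (Nat.card H : ℂ) = ∑ᶠ h : H, (χ : G → ℂ) (h : G) * ((lam h)⁻¹ : ℂˣ) := by
  classical
  have := Fintype.ofFinite H
  rw [S0150.classInner_indFun _ _ _ (fun g h => isIrr_isClassFunction χ.2 g h)] at h2
  have h3 : conj (n : ℂ) = (n : ℂ) := by rw [Complex.conj_natCast]
  rw [← h3, h2]
  unfold classInner
  rw [map_mul, map_inv₀, Complex.conj_natCast, map_sum, finsum_eq_sum_of_fintype]
  have h4 : (Nat.card H : ℂ) ≠ 0 := Nat.cast_ne_zero.2 Nat.card_pos.ne'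
  field_simp
  refine Finset.sum_congr rfl fun x _ => ?_
  rw [map_mul, Complex.conj_conj, Units.val_inv_eq_inv_val]
  have h5 := Cfsg.Agent.Characters.Linear.norm_hom_apply lam x
  rw [mul_comm, Complex.inv_eq_conj h5]

/-- **The parity law**, all generalized characters vanishing on the `p`-singular elements, blockwise. -/
theorem lform {K : Type*} [Field K] [Algebra K ℂ] {G : Type u} [Group G] [Fintype G]
    {p : ℕ} [Fact p.Prime] {M : Ideal AlgInt} (hM : IsPModular p M)
    (hK : ∀ z : ℂ, z ^ (Nat.card G / p ^ (Nat.card G).factorization p) = 1 → ∃ k : K, algebraMap K ℂ k = z)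
    {σ : Perm (IrrCharacter G)} (hcore : Core p M K G σ) {B : Set (IrrCharacter G)} (hB : IsPBlock M B)
    (x : IrrCharacter G → ℤ)
    (h0 : ∀ g : G, p ∣ orderOf g → ∑ᶠ χ : IrrCharacter G, (x χ : ℂ) * (χ : G → ℂ) g = 0) :
    Even (∑ᶠ χ ∈ B, x χ * ((dh p χ : ℤ) + 1) + orb σ (fun χ => open Classical in if χ ∈ B then x χ else 0)) := by
  classical
  have : Finite (IrrCharacter G) := finite_irr
  have := Fintype.ofFinite (IrrCharacter G)
  have := Fintype.ofFinite (Orbits σ)
  have hp : p.Prime := Fact.out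
  have hN0 : Nat.card G / p ^ (Nat.card G).factorization p ≠ 0 := (Nat.ordCompl_pos p Nat.card_pos.ne').ne'
  -- the value of the parity
  have hf : ∀ m : IrrCharacter G → ℤ, ∑ᶠ χ ∈ B, m χ * ((dh p χ : ℤ) + 1) =
      ∑ χ : IrrCharacter G, (if χ ∈ B then m χ else 0) * ((dh p χ : ℤ) + 1) := by
    intro m
    rw [finsum_mem_eq_finite_toFinset_sum _ (Set.toFinite B), ← Finset.sum_subset (Finset.subset_univ
      (Set.toFinite B).toFinset)]
    · refine Finset.sum_congr rfl fun χ hχ => ?_
      rw [if_pos ((Set.Finite.mem_toFinset _).1 hχ)]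
    · intro χ _ hχ
      rw [if_neg fun h => hχ ((Set.Finite.mem_toFinset _).2 h), zero_mul]
  set θ : G → ℂ := ∑ ψ : IrrCharacter G, x ψ • (ψ : G → ℂ) with hθ
  have h1 : IsGeneralizedCharacter G θ := isGeneralizedCharacter_iff.2 ⟨x, rfl⟩
  have hmem := mem_closure_of_vanish p h1 (fun g hg => by
    have h3 := h0 g (by unfold IsPRegular at hg; exact not_not.1 hg)
    rw [finsum_eq_sum_of_fintype] at h3
    rw [← h3, hθ, Finset.sum_apply]
    refine Finset.sum_congr rfl fun χ _ => ?_
    rw [Pi.smul_apply, zsmul_eq_mul])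
  have key : ∀ ψ ∈ AddSubgroup.closure (linInd p G), ∃ m : IrrCharacter G → ℤ,
      (∀ χ : IrrCharacter G, classInner ψ (χ : G → ℂ) = m χ) ∧
      Even (∑ χ : IrrCharacter G, (if χ ∈ B then m χ else 0) * ((dh p χ : ℤ) + 1) +
        orb σ (fun χ => if χ ∈ B then m χ else 0)) := by
    intro ψ hψ
    induction hψ using AddSubgroup.closure_induction with
    | mem y hy =>
      obtain ⟨H, lam, hH, rfl⟩ := hy
      have hch := isCharacter_indFun H (Cfsg.Agent.Characters.Linear.isCharacter_hom lam)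
      obtain ⟨N, hN⟩ := isCharacter_iff.1 hch
      have hN2 : ∀ χ : IrrCharacter G,
          (N χ : ℂ) = classInner (indFun H (fun h => (lam h : ℂ))) (χ : G → ℂ) := by
        intro χ
        rw [hN, classInner_sum_nsmul_irr]
      refine ⟨fun χ => N χ, fun χ => by rw [← hN2]; simp, ?_⟩
      have hHN : Nat.card ↥H ∣ Nat.card G / p ^ (Nat.card G).factorization p := by
        have h1 : Nat.Coprime (Nat.card ↥H) (p ^ (Nat.card G).factorization p) :=
          ((Nat.Prime.coprime_iff_not_dvd hp).2 hH).symm.pow_right _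
        refine h1.dvd_of_dvd_mul_left ?_
        rw [Nat.ordProj_mul_ordCompl_eq_self]
        exact Subgroup.card_subgroup_dvd_card H
      have hroot : ∀ z : ℂ, z ^ Nat.card ↥H = 1 → ∃ k : K, algebraMap K ℂ k = z := by
        intro z hz
        refine hK z ?_
        obtain ⟨c, hc⟩ := hHN
        rw [hc, pow_mul, hz, one_pow]
      obtain ⟨e, he, heO, h3, h4⟩ := exists_e' hM hB (blockCoeff_mem hM hK hB) H hH lam hroot N
        (fun χ => mult_eq H lam χ (hN2 χ))
      have hev : ∀ χ : IrrCharacter G, H162.KS.ev (χ : G → ℂ) e = ((if χ ∈ B then N χ else 0 : ℕ) : ℂ) := by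
        intro χ
        split_ifs with hχ
        · exact h3 χ hχ
        · rw [h4 χ hχ, Nat.cast_zero]
      obtain ⟨m, hm⟩ : ∃ m : IrrCharacter G → ℕ, m = fun χ => if χ ∈ B then N χ else 0 := ⟨_, rfl⟩
      have hc := hcore e he heO m (fun χ => by rw [hev χ, hm])
      have hmz : ∀ χ, (if χ ∈ B then (N χ : ℤ) else 0) = (m χ : ℤ) := by
        intro χ
        have h7 : m χ = if χ ∈ B then N χ else 0 := by rw [hm]
        rw [h7]
        split_ifs <;> simp
      simp only [hmz]
      rw [finsum_eq_sum_of_fintype] at hc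
      have hc' := (Int.even_coe_nat _).2 hc
      push_cast at hc'
      have e1 := even_orb σ (fun χ => (m χ : ℤ))
      have e2 := even_sum_sub Finset.univ (fun χ : IrrCharacter G => (m χ : ℤ))
      have c1 : (Nat.card {χ : IrrCharacter G // Odd (m χ)} : ℤ) =
          ((Finset.univ.filter fun χ : IrrCharacter G => Odd ((m χ : ℕ) : ℤ)).card : ℤ) := by
        rw [Nat.card_eq_fintype_card, Fintype.card_subtype]
        congr 2
        ext χ
        simp
      have c2 : (Nat.card {o : Orbits σ // Odd (m o.out)} : ℤ) =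
          (Nat.card {o : Orbits σ // Odd ((m o.out : ℕ) : ℤ)} : ℤ) := by
        simp only [Int.odd_coe_nat]
      have e3 : Even (∑ χ : IrrCharacter G, (m χ : ℤ) ^ 2 * (dh p χ : ℤ) -
          ∑ χ : IrrCharacter G, (m χ : ℤ) * (dh p χ : ℤ)) := by
        rw [← Finset.sum_sub_distrib]
        refine Finset.even_sum _ fun χ _ => ?_
        have : (m χ : ℤ) ^ 2 * (dh p χ : ℤ) - (m χ : ℤ) * (dh p χ : ℤ) =
          ((m χ : ℤ) * ((m χ : ℤ) - 1)) * (dh p χ : ℤ) := by ring
        rw [this]
        exact Even.mul_right (Int.even_mul_pred_self _) _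
      have e4 : ∑ χ : IrrCharacter G, (m χ : ℤ) * ((dh p χ : ℤ) + 1) =
          ∑ χ : IrrCharacter G, (m χ : ℤ) * (dh p χ : ℤ) + ∑ χ : IrrCharacter G, (m χ : ℤ) := by
        rw [← Finset.sum_add_distrib]
        refine Finset.sum_congr rfl fun χ _ => by ring
      rw [e4]
      rw [← c2] at e1
      rw [← c1] at e2
      rw [Int.even_iff] at *
      omega
    | zero =>
      refine ⟨0, fun χ => ?_, ?_⟩
      · rw [classInner_zero_left]; simp
      · have : (fun χ : IrrCharacter G => if χ ∈ B then (0 : IrrCharacter G → ℤ) χ else 0) = 0 := by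
          funext χ
          simp
        rw [this, orb_zero]
        simp
    | add a b _ _ ha hb =>
      obtain ⟨a, ha, ha2⟩ := ha
      obtain ⟨b, hb, hb2⟩ := hb
      refine ⟨a + b, fun χ => ?_, ?_⟩
      · rw [classInner_add_left, ha, hb, Pi.add_apply, Int.cast_add]
      · have h5 : (fun χ : IrrCharacter G => if χ ∈ B then (a + b) χ else 0) =
            (fun χ => if χ ∈ B then a χ else 0) + fun χ => if χ ∈ B then b χ else 0 := by
          funext χ
          simp only [Pi.add_apply]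
          split_ifs <;> simp
        have h6 : ∑ χ : IrrCharacter G, (if χ ∈ B then (a + b) χ else 0) * ((dh p χ : ℤ) + 1) =
            ∑ χ : IrrCharacter G, (if χ ∈ B then a χ else 0) * ((dh p χ : ℤ) + 1) +
              ∑ χ : IrrCharacter G, (if χ ∈ B then b χ else 0) * ((dh p χ : ℤ) + 1) := by
          rw [← Finset.sum_add_distrib]
          refine Finset.sum_congr rfl fun χ _ => ?_
          split_ifs
          · rw [Pi.add_apply]; ring
          · ring
        rw [h5, h6, orb_add]
        rw [Int.even_iff] at *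
        omega
    | neg a _ ha =>
      obtain ⟨a, ha, ha2⟩ := ha
      refine ⟨-a, fun χ => ?_, ?_⟩
      · rw [classInner_neg_left, ha, Pi.neg_apply, Int.cast_neg]
      · have h5 : (fun χ : IrrCharacter G => if χ ∈ B then (-a) χ else 0) =
            -(fun χ => if χ ∈ B then a χ else 0) := by
          funext χ
          simp only [Pi.neg_apply]
          split_ifs <;> simp
        have h6 : ∑ χ : IrrCharacter G, (if χ ∈ B then (-a) χ else 0) * ((dh p χ : ℤ) + 1) =
            -∑ χ : IrrCharacter G, (if χ ∈ B then a χ else 0) * ((dh p χ : ℤ) + 1) := by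
          rw [← Finset.sum_neg_distrib]
          refine Finset.sum_congr rfl fun χ _ => ?_
          split_ifs
          · rw [Pi.neg_apply]; ring
          · ring
        rw [h5, h6, orb_neg]
        rw [Int.even_iff] at *
        omega
  obtain ⟨m', hm', h⟩ := key _ hmem
  have hxm : x = m' := by
    funext χ
    have := (classInner_sum_zsmul_irr x χ).symm.trans (hm' χ)
    exact_mod_cast this
  rw [hf, hxm]
  exact h

end Cfsg.Agent.H703.PR
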